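import Cfsg.Agent.Blocks.BrauerBasis.Section
import Cfsg.Agent.Blocks.Orth.PrincipalGalois

/-!
# Galois fixed characters of a block

For `k` prime to `|G|` fixing every `p`-regular element, at least `blockRank p B` characters of a
block `B` are fixed by `χ ↦ χ (· ^ k)`: the permutation of `B` and a permutation of a basis of
section functions have the same trace, and the basis functions at the identity are fixed.
-/

set_option autoImplicit false
open Cfsg CfsgLib.Blocks CfsgLib.Blocks.Orth

namespace CfsgLib.Blocks.BrauerBasis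

universe u

variable {G : Type u} [Group G] [Fintype G] {p : ℕ} {M : Ideal AlgInt}

theorem pow_regular_subgroup {k : ℕ} (hkreg : ∀ s : G, IsPRegular p s → s ^ k = s) {H : Subgroup G}
    {s : H} (hs : IsPRegular p s) : (s : G) ^ k = s :=
  hkreg _ (by rw [IsPRegular, Subgroup.orderOf_coe]; exact hs)

theorem powIrr_mem_block [M.IsMaximal] (hM : IsPModular p M) {B : Set (IrrCharacter G)}
    (hB : IsPBlock M B) {k : ℕ} (hk : k.Coprime (Nat.card G))
    (hkreg : ∀ s : G, IsPRegular p s → s ^ k = s) {χ : IrrCharacter G} (hχ : χ ∈ B) :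
    powIrr hk χ ∈ B := by
  by_contra hψ
  set ψ := powIrr hk χ
  have hB' : IsPBlock M (blockOf M (ψ : G → ℂ)) := ⟨ψ, rfl⟩
  have hne : B ≠ blockOf M (ψ : G → ℂ) := fun h => hψ (h ▸ self_mem_blockOf ψ)
  have heq : pRegularPart p (χ : G → ℂ) = pRegularPart p (ψ : G → ℂ) := by
    funext g
    unfold pRegularPart
    split_ifs with hg
    · rw [powIrr_apply, hkreg g hg]
    · rfl
  have h1 := KLSum.blockPart_of_mem_regSpan hM hB hB
    (v := pRegularPart p (χ : G → ℂ)) (Submodule.subset_span ⟨χ, hχ, rfl⟩)
  have h2 := KLSum.blockPart_of_mem_regSpan hM hB hB'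
    (v := pRegularPart p (ψ : G → ℂ)) (Submodule.subset_span ⟨ψ, self_mem_blockOf ψ, rfl⟩)
  rw [if_pos rfl] at h1
  rw [if_neg hne, ← heq, h1] at h2
  have := congrFun h2 1
  simp [pRegularPart, IsPRegular, hM.1.ne_one] at this
  exact irrCharacter_one_ne_zero χ this

open scoped Classical in
/-- **Galois fixed characters dominate the rank.** -/
theorem blockRank_le_card_fixed (hM : IsPModular p M) {B : Set (IrrCharacter G)}
    (hB : IsPBlock M B) {k : ℕ} (hk : k.Coprime (Nat.card G))
    (hkreg : ∀ s : G, IsPRegular p s → s ^ k = s) :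
    blockRank p B ≤ Nat.card {χ : IrrCharacter G // χ ∈ B ∧ powIrr hk χ = χ} := by
  have := isMaximal_of_isPModular hM
  have hp := hM.1
  haveI : Fact p.Prime := ⟨hp⟩
  obtain ⟨X, hX1, hX, hXrep⟩ := exists_pElement_reps (G := G) hp
  -- the local bases
  choose n θ b hθc hθl hb hbl hbred hrank hindep hperm using
    fun x : {x // x ∈ X} => exists_basis (H := Subgroup.centralizer ({(x : G)} : Set G)) hM
  let J := Σ x : {x // x ∈ X},
    {i : Fin (n x) // IsInducedBlock M (Subgroup.centralizer ({(x : G)} : Set G)) (b x i) B}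
  let Θ : (x : {x // x ∈ X}) → Fin (n x) → G → ℂ := fun x i => sectionExt p (x : G) (θ x i)
  have hΘc : ∀ x i, IsClassFunction G (Θ x i) := fun x i =>
    isClassFunction_sectionExt hp (x : G) (hX _ x.2) (hθc x i)
  let V : (x : {x // x ∈ X}) → Fin (n x) → G → ℂ := fun x i => blockPart B (Θ x i)
  -- the values on the sections
  have hblocksfin : ∀ x : {x // x ∈ X}, Set.Finite
      {e | IsInducedBlock M (Subgroup.centralizer ({(x : G)} : Set G)) e B} := fun x => by
    haveI := CfsgLib.Blocks.finite_irrCharacter (G := Subgroup.centralizer ({(x : G)} : Set G))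
    exact Set.toFinite _
  let S : (x : {x // x ∈ X}) → Finset (Set (IrrCharacter (Subgroup.centralizer ({(x : G)} : Set G)))) :=
    fun x => (hblocksfin x).toFinset
  have hS : ∀ x e, e ∈ S x ↔
      IsInducedBlock M (Subgroup.centralizer ({(x : G)} : Set G)) e B := fun x e => by simp [S]
  have hoff : ∀ (x y : {x // x ∈ X}) i (s : Subgroup.centralizer ({(y : G)} : Set G)),
      IsPRegular p s → x ≠ y → V x i ((y : G) * (s : G)) = 0 := by
    intro x y i s hs hxy
    show blockPart B (Θ x i) _ = 0
    rw [blockPart_section hM hB (hX _ y.2) (S y) (hS y) (hΘc x i) s hs]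
    refine Finset.sum_eq_zero fun e he => ?_
    rw [blockPart_congr_regular hM ((hS y e).1 he).1 (f' := 0) (fun c hc => ?_) hs]
    · simp [blockPart_apply_eq, Chars.classInner_zero_left]
    · refine sectionExt_eq_zero_of_not_isConj hp (x : G) (hX _ x.2) _
        (isPPart_mul_of_mem rfl (hX _ y.2) hc) fun h => hxy ?_
      obtain ⟨z, -, hz⟩ := hXrep (y : G) (hX _ y.2)
      exact Subtype.ext ((hz x ⟨x.2, h⟩).trans (hz y ⟨y.2, IsConj.refl _⟩).symm)
  have hon : ∀ (x : {x // x ∈ X}) i (s : Subgroup.centralizer ({(x : G)} : Set G)),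
      IsPRegular p s →
      V x i ((x : G) * (s : G)) = ∑ e ∈ S x, blockPart e (θ x i) s := by
    intro x i s hs
    show blockPart B (Θ x i) _ = _
    rw [blockPart_section hM hB (hX _ x.2) (S x) (hS x) (hΘc x i) s hs]
    refine Finset.sum_congr rfl fun e he => ?_
    refine blockPart_congr_regular hM ((hS x e).1 he).1 (fun c hc => ?_) hs
    have := sectionExt_apply hp (x : G) (hX _ x.2) (hθc x i) 1 hc
    simpa using this
  have hred : ∀ (x : {x // x ∈ X}) i (s : Subgroup.centralizer ({(x : G)} : Set G)),
      IsPRegular p s → MemLocalRing M (V x i ((x : G) * (s : G))) ∧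
      redC M (V x i ((x : G) * (s : G))) =
        if IsInducedBlock M (Subgroup.centralizer ({(x : G)} : Set G)) (b x i) B
        then redC M (θ x i s) else 0 := by
    intro x i s hs
    rw [hon x i s hs]
    have hl : ∀ e ∈ S x, MemLocalRing M (blockPart e (θ x i) s) := fun e he =>
      hbl x i e ((hS x e).1 he).1 s
    refine ⟨(localRing M).sum_mem hl, ?_⟩
    rw [redC_sum _ _ hl]
    split_ifs with hind
    · rw [Finset.sum_eq_single (b x i)]
      · exact (hbred x i _ (hb x i) s hs).1 rfl
      · exact fun e he hne => (hbred x i e ((hS x e).1 he).1 s hs).2 hne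
      · exact fun h => absurd ((hS x _).2 hind) h
    · refine Finset.sum_eq_zero fun e he => (hbred x i e ((hS x e).1 he).1 s hs).2 fun h => ?_
      exact hind (h ▸ (hS x e).1 he)
  -- independence on one section
  have hsecind : ∀ (x : {x // x ∈ X}) (a : Fin (n x) → ℂ),
      (∀ i, ¬ IsInducedBlock M (Subgroup.centralizer ({(x : G)} : Set G)) (b x i) B → a i = 0) →
      (∀ s : Subgroup.centralizer ({(x : G)} : Set G), IsPRegular p s →
        ∑ i, a i * V x i ((x : G) * (s : G)) = 0) → a = 0 := by
    intro x a ha0 ha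
    refine hindep x (fun i s =>
      if IsInducedBlock M (Subgroup.centralizer ({(x : G)} : Set G)) (b x i) B
      then V x i ((x : G) * (s : G)) else θ x i s) (fun i s hs => ?_) a fun s hs => ?_
    · show MemLocalRing M (ite _ _ _) ∧ redC M (ite _ _ _) = _
      split_ifs with hind
      · exact ⟨(hred x i s hs).1, by rw [(hred x i s hs).2, if_pos hind]⟩
      · exact ⟨hθl x i s, rfl⟩
    · rw [← ha s hs]
      refine Finset.sum_congr rfl fun i _ => ?_
      by_cases hind : IsInducedBlock M (Subgroup.centralizer ({(x : G)} : Set G)) (b x i) B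
      · simp [hind]
      · simp [ha0 i hind]
  -- the space of the block
  haveI : Fintype B := Fintype.ofFinite _
  let W : Submodule ℂ (G → ℂ) := Submodule.span ℂ ((fun χ : IrrCharacter G => (χ : G → ℂ)) '' B)
  have hWmem : ∀ f, blockPart B f ∈ W := fun f => by
    rw [blockPart_apply_eq]
    exact Submodule.sum_mem _ fun χ hχ => Submodule.smul_mem _ _
      (Submodule.subset_span ⟨χ, B.toFinite.mem_toFinset.1 hχ, rfl⟩)
  let wv : J → W := fun j => ⟨V j.1 j.2, hWmem _⟩
  have hwsec : ∀ (c : J → ℂ) (y : {x // x ∈ X}) (s : Subgroup.centralizer ({(y : G)} : Set G)),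
      IsPRegular p s → ((∑ j, c j • wv j : W) : G → ℂ) ((y : G) * (s : G)) =
        ∑ i : {i : Fin (n y) // IsInducedBlock M (Subgroup.centralizer ({(y : G)} : Set G)) (b y i) B},
          c ⟨y, i⟩ * V y i ((y : G) * (s : G)) := by
    intro c y s hs
    simp only [AddSubmonoidClass.coe_finsetSum, SetLike.val_smul, Finset.sum_apply, Pi.smul_apply,
      smul_eq_mul, wv]
    rw [Fintype.sum_sigma, Finset.sum_eq_single y]
    · intro x _ hxy
      exact Finset.sum_eq_zero fun i _ => by rw [hoff x y i s hs hxy, mul_zero]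
    · exact fun h => absurd (Finset.mem_univ _) h
  have hcoef : ∀ (y : {x // x ∈ X})
      (a : {i : Fin (n y) // IsInducedBlock M (Subgroup.centralizer ({(y : G)} : Set G)) (b y i) B} → ℂ),
      (∀ s : Subgroup.centralizer ({(y : G)} : Set G), IsPRegular p s →
        ∑ i, a i * V y i ((y : G) * (s : G)) = 0) → a = 0 := by
    intro y a ha
    have h := hsecind y (fun i => if hi : _ then a ⟨i, hi⟩ else 0) (fun i hi => dif_neg hi)
      fun s hs => ?_
    · funext i
      have := congrFun h i.1
      simpa [i.2] using this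
    · refine Eq.trans ?_ (ha s hs)
      rw [← Finset.sum_subset (Finset.subset_univ
        (Finset.univ.filter fun i => IsInducedBlock M _ (b y i) B))
        (fun i _ hi => by simp at hi; simp [hi]),
        Finset.sum_subtype (p := fun i => IsInducedBlock M _ (b y i) B) _ (by simp)]
      refine Finset.sum_congr rfl fun i _ => ?_
      simp [i.2]
  have hwli : LinearIndependent ℂ wv := by
    rw [Fintype.linearIndependent_iff]
    rintro c hc ⟨y, i⟩
    refine congrFun (hcoef y (fun i => c ⟨y, i⟩) fun s hs => ?_) i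
    rw [← hwsec c y s hs, hc]
    rfl
  have hirr : LinearIndependent ℂ (fun χ : B => ((χ : IrrCharacter G) : G → ℂ)) :=
    (Chars.linearIndependent_irr G).comp _ Subtype.val_injective
  have hWrange : W = Submodule.span ℂ (Set.range fun χ : B => ((χ : IrrCharacter G) : G → ℂ)) := by
    show Submodule.span ℂ _ = _
    rw [Set.image_eq_range]
  haveI : Module.Finite ℂ W := Module.Finite.span_of_finite ℂ (Set.toFinite _)
  have hdimW : Module.finrank ℂ W = Fintype.card B := by
    rw [hWrange, finrank_span_eq_card hirr]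
  have hJcard : Fintype.card J = Fintype.card B := by
    rw [← Nat.card_eq_fintype_card (α := B), natCard_block_eq_sum_blockRank hM hB X hX hXrep,
      ← Finset.sum_coe_sort X, Fintype.card_sigma]
    refine Finset.sum_congr rfl fun x _ => ?_
    have hset : {e : Set (IrrCharacter (Subgroup.centralizer ({(x : G)} : Set G))) |
        IsInducedBlock M (Subgroup.centralizer ({(x : G)} : Set G)) e B} = ↑(S x) := by
      ext e; simp [hS]
    rw [hset, finsum_mem_coe_finset, Finset.sum_congr rfl fun e he => by
      rw [hrank x e ((hS x e).1 he).1, Nat.card_eq_fintype_card, Fintype.card_subtype],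
      Fintype.card_subtype,
      Finset.card_eq_sum_card_fiberwise (t := S x) (f := b x) fun i hi =>
        (hS x _).2 (Finset.mem_filter.1 hi).2]
    refine Finset.sum_congr rfl fun e he => congrArg Finset.card ?_
    ext i
    simp only [Finset.mem_filter, Finset.mem_univ, true_and]
    exact ⟨fun h => h.2, fun h => ⟨h.symm ▸ (hS x e).1 he, h⟩⟩
  have hspanJ : ⊤ ≤ Submodule.span ℂ (Set.range wv) := by
    rw [Submodule.eq_top_of_finrank_eq
      (S := Submodule.span ℂ (Set.range wv)) (by rw [finrank_span_eq_card hwli, hdimW, hJcard])]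
  let bJ : Module.Basis J ℂ W := Module.Basis.mk hwli hspanJ
  have hbJ : ∀ j, bJ j = wv j := fun j => Module.Basis.mk_apply _ _ _
  have hrepr : ∀ (f : W) (y : {x // x ∈ X}) (s : Subgroup.centralizer ({(y : G)} : Set G)),
      IsPRegular p s → (f : G → ℂ) ((y : G) * (s : G)) =
        ∑ i : {i : Fin (n y) // IsInducedBlock M (Subgroup.centralizer ({(y : G)} : Set G)) (b y i) B},
          bJ.repr f ⟨y, i⟩ * V y i ((y : G) * (s : G)) := by
    intro f y s hs
    rw [← hwsec _ y s hs]
    conv_lhs => rw [← bJ.sum_repr f]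
    simp only [hbJ]
  -- the action
  let P : B → B := fun χ => ⟨powIrr hk χ, powIrr_mem_block hM hB hk hkreg χ.2⟩
  have hPbij : Function.Bijective P := Finite.injective_iff_bijective.1 fun χ ψ h =>
    Subtype.ext (powIrr_injective hk (congrArg Subtype.val h))
  let T : (G → ℂ) →ₗ[ℂ] (G → ℂ) := LinearMap.funLeft ℂ ℂ fun g => g ^ k
  have hTW : ∀ f ∈ W, T f ∈ W := by
    intro f hf
    induction hf using Submodule.span_induction with
    | mem z hz =>
      obtain ⟨χ, hχ, rfl⟩ := hz
      exact Submodule.subset_span ⟨powIrr hk χ, powIrr_mem_block hM hB hk hkreg hχ, rfl⟩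
    | zero => simp
    | add z w _ _ hz hw => rw [map_add]; exact W.add_mem hz hw
    | smul a z _ hz => rw [map_smul]; exact W.smul_mem a hz
  let TW : W →ₗ[ℂ] W := T.restrict hTW
  have hpowbij : Function.Bijective fun g : G => g ^ k := (powCoprime (G := G) hk.symm).bijective
  have hTblock : ∀ f : G → ℂ, T (blockPart B f) = blockPart B (T f) := by
    intro f
    funext g
    show blockPart B f (g ^ k) = blockPart B (T f) g
    simp only [blockPart_apply_eq, Finset.sum_apply, Pi.smul_apply, smul_eq_mul]
    refine Finset.sum_bij (fun χ _ => powIrr hk χ)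
      (fun χ hχ => B.toFinite.mem_toFinset.2 (powIrr_mem_block hM hB hk hkreg
        (B.toFinite.mem_toFinset.1 hχ)))
      (fun _ _ _ _ h => powIrr_injective hk h) (fun ψ hψ => ?_) fun χ _ => ?_
    · obtain ⟨χ, hχ⟩ := hPbij.2 ⟨ψ, B.toFinite.mem_toFinset.1 hψ⟩
      exact ⟨χ, B.toFinite.mem_toFinset.2 χ.2, congrArg Subtype.val hχ⟩
    · rw [powIrr_apply]
      congr 1
      simp only [classInner]
      congr 1
      exact (hpowbij.sum_comp fun x => f x * (starRingEnd ℂ) ((χ : G → ℂ) x)).symm
  -- two bases
  let bB : Module.Basis B ℂ W := (Module.Basis.span hirr).map (LinearEquiv.ofEq _ _ hWrange.symm)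
  have hbB : ∀ χ : B, (bB χ : G → ℂ) = ((χ : IrrCharacter G) : G → ℂ) := fun χ => by simp [bB]
  have htrB : LinearMap.trace ℂ W TW = (Fintype.card {χ : B // P χ = χ} : ℂ) := by
    rw [LinearMap.trace_eq_matrix_trace ℂ bB, Matrix.trace]
    simp only [Matrix.diag, LinearMap.toMatrix_apply]
    have hP' : ∀ χ, TW (bB χ) = bB (P χ) := fun χ => Subtype.ext (by
      rw [hbB (P χ)]
      show T (bB χ : G → ℂ) = _
      rw [hbB]
      rfl)
    simp only [hP', Module.Basis.repr_self, Finsupp.single_apply]
    rw [Finset.sum_boole, Fintype.card_subtype]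
  -- the entries in the section basis
  have hpowsec : ∀ (x : {x // x ∈ X}) (s : Subgroup.centralizer ({(x : G)} : Set G)),
      IsPRegular p s → ((x : G) * (s : G)) ^ k = (x : G) ^ k * (s : G) := by
    intro x s hs
    rw [Commute.mul_pow (Subgroup.mem_centralizer_singleton_iff.1 s.2).symm,
      pow_regular_subgroup hkreg hs]
  have hdiag : ∀ j : J, ∃ δ : ℕ, bJ.repr (TW (bJ j)) j = (δ : ℂ) ∧
      (((j.1 : {x // x ∈ X}) : G) = 1 → δ = 1) := by
    rintro ⟨x, i, hi⟩
    rw [hbJ]
    by_cases hfix : IsConj ((x : G) ^ k) (x : G)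
    · -- a fixed section
      obtain ⟨c, hc⟩ := isConj_iff.1 hfix.symm
      have hcent : ∀ s : G, s ∈ Subgroup.centralizer ({(x : G)} : Set G) →
          c⁻¹ * s * c ∈ Subgroup.centralizer ({(x : G)} : Set G) := by
        intro s hs
        rw [← centralizer_pow_coprime hk (x : G), Subgroup.mem_centralizer_singleton_iff, ← hc] at hs
        rw [Subgroup.mem_centralizer_singleton_iff]
        calc c⁻¹ * s * c * (x : G) = c⁻¹ * (s * (c * (x : G) * c⁻¹)) * c := by group
          _ = c⁻¹ * (c * (x : G) * c⁻¹ * s) * c := by rw [hs]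
          _ = (x : G) * (c⁻¹ * s * c) := by group
      have hcent' : ∀ s : G, s ∈ Subgroup.centralizer ({(x : G)} : Set G) →
          c * s * c⁻¹ ∈ Subgroup.centralizer ({(x : G)} : Set G) := by
        intro s hs
        rw [← centralizer_pow_coprime hk (x : G), Subgroup.mem_centralizer_singleton_iff, ← hc]
        rw [Subgroup.mem_centralizer_singleton_iff] at hs
        calc c * s * c⁻¹ * (c * (x : G) * c⁻¹) = c * (s * (x : G)) * c⁻¹ := by group
          _ = c * ((x : G) * s) * c⁻¹ := by rw [hs]
          _ = c * (x : G) * c⁻¹ * (c * s * c⁻¹) := by group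
      let α : Subgroup.centralizer ({(x : G)} : Set G) ≃* Subgroup.centralizer ({(x : G)} : Set G) :=
        { toFun := fun s => ⟨c⁻¹ * s * c, hcent _ s.2⟩
          invFun := fun s => ⟨c * s * c⁻¹, hcent' _ s.2⟩
          left_inv := fun s => Subtype.ext (by simp [mul_assoc])
          right_inv := fun s => Subtype.ext (by simp [mul_assoc])
          map_mul' := fun s t => Subtype.ext (by simp [mul_assoc]) }
      have hαreg : ∀ s, IsPRegular p s → IsPRegular p (α s) := fun s hs => by
        rw [IsPRegular, MulEquiv.orderOf_eq]; exact hs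
      have hxk : ∀ s : Subgroup.centralizer ({(x : G)} : Set G),
          (x : G) ^ k * (s : G) = c * ((x : G) * (α s : G)) * c⁻¹ := fun s => by
        rw [← hc]; simp only [α, MulEquiv.coe_mk, Equiv.coe_fn_mk]; group
      obtain ⟨π, hπ⟩ := hperm x α
      have hTΘ : T (Θ x i) = Θ x (π i) := by
        funext g
        show Θ x i (g ^ k) = Θ x (π i) g
        obtain ⟨u, hu⟩ := exists_isPPart (G := G) hp g
        obtain ⟨w, hw, hcomm, hup, hwr⟩ := hu
        obtain ⟨y, ⟨hy, huy⟩, hyu⟩ := hXrep u hup
        by_cases hyx : y = (x : G)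
        · subst hyx
          obtain ⟨a, ha⟩ := isConj_iff.1 huy.symm
          have hs : a⁻¹ * w * a ∈ Subgroup.centralizer ({(x : G)} : Set G) := by
            rw [Subgroup.mem_centralizer_singleton_iff]
            calc a⁻¹ * w * a * (x : G) = a⁻¹ * (w * (a * (x : G) * a⁻¹)) * a := by group
              _ = a⁻¹ * (a * (x : G) * a⁻¹ * w) * a := by rw [ha, hcomm.eq]
              _ = (x : G) * (a⁻¹ * w * a) := by group
          have hsr : IsPRegular p (⟨_, hs⟩ : Subgroup.centralizer ({(x : G)} : Set G)) := by
            rw [IsPRegular, ← Subgroup.orderOf_coe]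
            show ¬ p ∣ orderOf (a⁻¹ * w * a)
            have := (isPRegular_conj_iff (p := p) a⁻¹ w).2 hwr
            rwa [inv_inv] at this
          have hg : g = a * ((x : G) * (a⁻¹ * w * a)) * a⁻¹ := by
            rw [← hw, ← ha]; group
          rw [hg]
          show Θ x i ((a * ((x : G) * ((⟨_, hs⟩ :
            Subgroup.centralizer ({(x : G)} : Set G)) : G)) * a⁻¹) ^ k) =
            Θ x (π i) (a * ((x : G) * ((⟨_, hs⟩ :
            Subgroup.centralizer ({(x : G)} : Set G)) : G)) * a⁻¹)
          rw [conj_pow, hpowsec x _ hsr, hxk]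
          simp only [Θ]
          rw [sectionExt_apply hp (x : G) (hX _ x.2) (hθc x _) a hsr,
            show a * (c * ((x : G) * (α ⟨_, hs⟩ : G)) * c⁻¹) * a⁻¹ =
              a * c * ((x : G) * (α ⟨_, hs⟩ : G)) * (a * c)⁻¹ by group]
          exact (sectionExt_apply hp (x : G) (hX _ x.2) (hθc x i) (a * c) (hαreg _ hsr)).trans
            (hπ i _)
        · have hnc : ¬ IsConj u (x : G) := fun h => hyx (hyu x ⟨x.2, h⟩).symm
          have hu' : IsPPart p g u := ⟨w, hw, hcomm, hup, hwr⟩
          have huk : IsPPart p (g ^ k) (u ^ k) := by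
            refine ⟨w ^ k, by rw [← hcomm.mul_pow, hw], hcomm.pow_pow k k, ?_, ?_⟩
            · obtain ⟨e, he⟩ := hup
              exact ⟨e, by rw [Nat.Coprime.orderOf_pow
                (Nat.Coprime.coprime_dvd_left (orderOf_dvd_natCard u) hk.symm), he]⟩
            · exact fun h => hwr (h.trans (orderOf_pow_dvd k))
          have hnc' : ¬ IsConj (u ^ k) (x : G) := by
            intro h
            obtain ⟨a, ha⟩ := isConj_iff.1 (h.trans hfix.symm)
            refine hnc (isConj_iff.2 ⟨a, hpowbij.1 ?_⟩)
            show (a * u * a⁻¹) ^ k = _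
            rw [conj_pow, ha]
          show sectionExt p _ _ _ = sectionExt p _ _ _
          rw [sectionExt_eq_zero_of_not_isConj hp (x : G) (hX _ x.2) _ hu' hnc,
            sectionExt_eq_zero_of_not_isConj hp (x : G) (hX _ x.2) _ huk hnc']
      have hTV : T (V x i) = V x (π i) := by
        show T (blockPart B (Θ x i)) = blockPart B (Θ x (π i))
        rw [hTblock, hTΘ]
      have hπind : IsInducedBlock M (Subgroup.centralizer ({(x : G)} : Set G)) (b x (π i)) B := by
        by_contra hnot
        have h0 : ∀ s, IsPRegular p s → redC M (θ x i (α s)) = 0 := by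
          intro s hs
          have h1 := (hred x (π i) s hs).2
          rw [if_neg hnot, ← hTV] at h1
          have h2 : T (V x i) ((x : G) * (s : G)) = V x i ((x : G) * (α s : G)) := by
            show V x i (((x : G) * (s : G)) ^ k) = _
            rw [hpowsec x s hs, hxk]
            exact isClassFunction_blockPart B _ _ _
          rw [h2, (hred x i (α s) (hαreg s hs)).2, if_pos hi] at h1
          exact h1
        have h3 : (Pi.single i 1 : Fin (n x) → ℂ) = 0 := by
          refine hindep x (fun m s => if m = i then θ x m s - θ x m s else θ x m s)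
            (fun m s hs => ?_) _ fun s hs => ?_
          · show MemLocalRing M (ite _ _ _) ∧ redC M (ite _ _ _) = _
            split_ifs with hm
            · subst hm
              have := h0 (α.symm s) (by rw [IsPRegular, MulEquiv.orderOf_eq]; exact hs)
              rw [MulEquiv.apply_symm_apply] at this
              rw [sub_self, this, redC_zero]
              exact ⟨(localRing M).zero_mem, rfl⟩
            · exact ⟨hθl x m s, rfl⟩
          · rw [Finset.sum_eq_single i]
            · simp
            · intro m _ hm; simp [hm]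
            · simp
        simpa using congrFun h3 i
      have hTw : TW (wv ⟨x, i, hi⟩) = bJ ⟨x, π i, hπind⟩ := by
        rw [hbJ]; exact Subtype.ext hTV
      rw [hTw, Module.Basis.repr_self]
      by_cases hpi : π i = i
      · exact ⟨1, by simp [hpi], fun _ => rfl⟩
      · refine ⟨0, ?_, fun h1 => absurd ?_ hpi⟩
        · rw [Finsupp.single_apply, if_neg, Nat.cast_zero]
          intro h
          have h' := congrArg Subtype.val (eq_of_heq (Sigma.mk.inj h).2)
          first | exact hpi h' | exact hpi h'.symm
        · -- at the identity the permutation is trivial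
          by_contra hne
          have h3 : (Pi.single i 1 - Pi.single (π i) 1 : Fin (n x) → ℂ) = 0 := by
            refine hindep x (θ x) (fun m s _ => ⟨hθl x m s, rfl⟩) _ fun s hs => ?_
            have h4 : θ x (π i) s = θ x i s := by
              rw [← hπ]
              conv_rhs => rw [← hθc x i s ⟨c⁻¹, by
                rw [Subgroup.mem_centralizer_singleton_iff, h1, one_mul, mul_one]⟩]
              congr 1
              exact Subtype.ext (by simp [α])
            simp [sub_mul, Finset.sum_sub_distrib, Pi.single_apply, h4]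
          have := congrFun h3 i
          simp [Pi.single_apply, Ne.symm hne] at this
    · refine ⟨0, ?_, fun h1 => absurd ?_ hfix⟩
      · rw [Nat.cast_zero]
        refine congrFun (hcoef x (fun m => bJ.repr (TW (wv ⟨x, i, hi⟩)) ⟨x, m⟩) fun s hs => ?_)
          ⟨i, hi⟩
        rw [← hrepr _ x s hs]
        show T (V x i) ((x : G) * (s : G)) = 0
        show V x i (((x : G) * (s : G)) ^ k) = 0
        rw [hpowsec x s hs]
        obtain ⟨e, he⟩ := hX _ x.2
        obtain ⟨y, ⟨hy, hxy⟩, -⟩ := hXrep ((x : G) ^ k) ⟨e, by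
          rw [Nat.Coprime.orderOf_pow
            (Nat.Coprime.coprime_dvd_left (orderOf_dvd_natCard (x : G)) hk.symm), he]⟩
        obtain ⟨a, ha⟩ := isConj_iff.1 hxy.symm
        have hsy : a⁻¹ * (s : G) * a ∈ Subgroup.centralizer ({y} : Set G) := by
          have hsk : (s : G) * (x : G) ^ k = (x : G) ^ k * (s : G) :=
            (Commute.pow_right (Subgroup.mem_centralizer_singleton_iff.1 s.2) k)
          rw [← ha] at hsk
          rw [Subgroup.mem_centralizer_singleton_iff]
          calc a⁻¹ * (s : G) * a * y = a⁻¹ * ((s : G) * (a * y * a⁻¹)) * a := by group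
            _ = a⁻¹ * (a * y * a⁻¹ * (s : G)) * a := by rw [hsk]
            _ = y * (a⁻¹ * (s : G) * a) := by group
        rw [show (x : G) ^ k * (s : G) = a * (y * (a⁻¹ * (s : G) * a)) * a⁻¹ by rw [← ha]; group]
        refine (isClassFunction_blockPart B _ _ _).trans ?_
        refine hoff x ⟨y, hy⟩ i ⟨_, hsy⟩ ?_ fun h => hfix ?_
        · rw [IsPRegular, ← Subgroup.orderOf_coe]
          show ¬ p ∣ orderOf (a⁻¹ * (s : G) * a)
          have := (isPRegular_conj_iff (p := p) a⁻¹ (s : G)).2
            (by rw [IsPRegular, Subgroup.orderOf_coe]; exact hs)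
          rwa [inv_inv] at this
        · rw [show (x : G) = y from congrArg Subtype.val h] at hxy ⊢
          exact hxy
      · simp only at h1
        rw [h1, one_pow]
  choose δ hδ hδ1 using hdiag
  have htrJ : LinearMap.trace ℂ W TW = ((∑ j, δ j : ℕ) : ℂ) := by
    rw [LinearMap.trace_eq_matrix_trace ℂ bJ, Matrix.trace]
    simp [Matrix.diag, LinearMap.toMatrix_apply, hδ]
  have hcount : (∑ j, δ j) = Fintype.card {χ : B // P χ = χ} := by
    exact_mod_cast htrJ.symm.trans htrB
  -- the rank
  let x₁ : {x // x ∈ X} := ⟨1, hX1⟩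
  have hrankle : blockRank p B ≤
      Fintype.card {i : Fin (n x₁) // IsInducedBlock M
        (Subgroup.centralizer ({(x₁ : G)} : Set G)) (b x₁ i) B} := by
    let R : W →ₗ[ℂ] (G → ℂ) :=
      { toFun := fun f => pRegularPart p (f : G → ℂ)
        map_add' := fun f g => by
          funext z; simp only [pRegularPart, Submodule.coe_add, Pi.add_apply]; split_ifs <;> simp
        map_smul' := fun a f => by
          funext z; simp only [pRegularPart, SetLike.val_smul, Pi.smul_apply, RingHom.id_apply,
            smul_eq_mul]; split_ifs <;> simp }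
    have hle : KLSum.regSpan p B ≤ Submodule.span ℂ (Set.range fun i : {i : Fin (n x₁) //
        IsInducedBlock M (Subgroup.centralizer ({(x₁ : G)} : Set G)) (b x₁ i) B} =>
          pRegularPart p (V x₁ i)) := by
      refine Submodule.span_le.2 ?_
      rintro _ ⟨χ, hχ, rfl⟩
      have hf : R ⟨(χ : G → ℂ), Submodule.subset_span ⟨χ, hχ, rfl⟩⟩ = pRegularPart p (χ : G → ℂ) :=
        rfl
      show pRegularPart p (χ : G → ℂ) ∈ _
      rw [← hf, ← bJ.sum_repr ⟨(χ : G → ℂ), _⟩, map_sum]
      refine Submodule.sum_mem _ fun j _ => ?_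
      rw [map_smul, hbJ]
      refine Submodule.smul_mem _ _ ?_
      obtain ⟨y, i⟩ := j
      by_cases hy : y = x₁
      · subst hy
        exact Submodule.subset_span ⟨i, rfl⟩
      · have h0 : R (wv ⟨y, i⟩) = 0 := by
          funext z
          show pRegularPart p (V y i) z = 0
          unfold pRegularPart
          split_ifs with hz
          · have hz1 : z ∈ Subgroup.centralizer ({(x₁ : G)} : Set G) := by
              rw [Subgroup.mem_centralizer_singleton_iff]; simp [x₁]
            have := hoff y x₁ i ⟨z, hz1⟩ (by rw [IsPRegular, ← Subgroup.orderOf_coe]; exact hz) hy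
            simpa [x₁] using this
          · rfl
        rw [h0]
        exact Submodule.zero_mem _
    rw [KLSum.blockRank_eq_finrank]
    haveI : Module.Finite ℂ (Submodule.span ℂ (Set.range fun i : {i : Fin (n x₁) //
        IsInducedBlock M (Subgroup.centralizer ({(x₁ : G)} : Set G)) (b x₁ i) B} =>
          pRegularPart p (V x₁ i))) := Module.Finite.span_of_finite ℂ (Set.finite_range _)
    exact (Submodule.finrank_mono hle).trans (finrank_range_le_card _)
  have hfixcard : Nat.card {χ : IrrCharacter G // χ ∈ B ∧ powIrr hk χ = χ} =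
      Fintype.card {χ : B // P χ = χ} := by
    rw [← Nat.card_eq_fintype_card]
    exact Nat.card_congr
      { toFun := fun χ => ⟨⟨χ.1, χ.2.1⟩, Subtype.ext χ.2.2⟩
        invFun := fun χ => ⟨χ.1.1, χ.1.2, congrArg Subtype.val χ.2⟩
        left_inv := fun χ => rfl
        right_inv := fun χ => rfl }
  rw [hfixcard, ← hcount]
  refine hrankle.trans ?_
  rw [← Finset.card_univ, Finset.card_eq_sum_ones, Fintype.sum_sigma]
  refine le_trans ?_ (Finset.single_le_sum (fun _ _ => Nat.zero_le _) (Finset.mem_univ x₁))
  exact Finset.sum_le_sum fun i _ => (hδ1 ⟨x₁, i⟩ rfl).ge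

end CfsgLib.Blocks.BrauerBasis
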